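import Cfsg.Agent.H738.E83.Cube
import Cfsg.Agent.H977.E83.Wact

/-!
# S5925, box K: `[q, [q, x¹⁰ q]] = 0` (helper399)
-/

set_option autoImplicit false
set_option maxRecDepth 100000
set_option exponentiation.threshold 600

namespace Cfsg.Agent.H399.E83

open Matrix Cfsg.Lie
open Cfsg.Agent.H788.E83 (SL5 Lt Ax Ay At wx wy wt ev)
open Cfsg.Agent.H74.E83 Cfsg.Agent.H74.E83.Trit Cfsg.Agent.H74.E83.Code
open Cfsg.Agent.H64.E83 (mx L3 er vec Ph)
open Cfsg.Agent.H738.E83
open Cfsg.Agent.H977.E83 (ql u0 r0 bh1 bh2 bh3 bh4 tr0 th2 yxxr0 yxxh2 putL vldM_putL okF col col_of act_x zl vb_zl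
  y_q t_q xty_u0 xty_u0' t_r0 t_h2 yxx_r0 yxx_h2)

/-- `x¹⁰ q` -/
def qten : List (ℕ × Bool) := [(14, false), (16, true), (21, true), (127, true), (131, false), (133, false),
  (137, false), (140, true), (144, true), (149, false), (154, false), (155, false), (165, true), (171, true),
  (176, true), (187, true)]

theorem x_qten : mx (Ph Ax) *ᵥ vb qten = vb ql := by
  have hV : VldM (putL 0 (zl qten) 0) := vldM_putL (by norm_num) _ vldM_zero
  have h0 : col (putL 0 (zl qten) 0) 0 = vb qten := col_of (l := zl qten) (by decide +kernel)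
  rw [← h0, ← (act_x hV).2 0]
  exact col_of (l := zl ql) (by decide +kernel)

theorem mx_mul' (g h : ↥(chevE8.group (ZMod 3))) (v : L3) : mx (g * h) *ᵥ v = mx g *ᵥ (mx h *ᵥ v) := by
  rw [Matrix.mulVec_mulVec]; rfl

theorem x_ten : mx (Ph Ax ^ 10) *ᵥ vb ql = vb qten := by
  have h11 : Ph Ax ^ 10 * Ph Ax = 1 := by
    rw [← pow_succ]
    exact Cfsg.Agent.H74.E83.Trip.x1_pow
  rw [← x_qten, ← mx_mul', h11]
  show (1 : Matrix chevE8.Idx chevE8.Idx (ZMod 3)) *ᵥ _ = _
  exact Matrix.one_mulVec _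

/-- **(C)** -/
theorem qqx : br (vb ql) (br (vb ql) (mx (Ph Ax ^ 10) *ᵥ vb ql)) = 0 := by
  rw [x_ten]
  exact (((sem_vs (w := qten) (by decide +kernel)).aw (w := ql) (by decide +kernel)).aw (w := ql)
    (by decide +kernel)).eq_zero (by decide +kernel)

end Cfsg.Agent.H399.E83
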